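import Cfsg.Agent.Golay.OrbFix
import Cfsg.Agent.Golay.OrbThree

/-!
# The centraliser in `M24` of a fixed-point-free involution (owner: helper91)

`C0` is the centraliser in `M24` of the involution `τ0` with table `tab0`; `card_C0 : |C0| = 7680`, `C0_transitive`,
`C0_fixes_sextet` : it fixes the sextet `decS 3186`.
-/

set_option autoImplicit false

namespace Cfsg.Agent.Golay.Orb

open Cfsg MulAction Cfsg.Agent.Golay
open scoped Pointwise

noncomputable def τ0 : Equiv.Perm GolayPt := (exists_mem_M24 tab0_valid).choose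

theorem τ0_mem : τ0 ∈ M24 := (exists_mem_M24 tab0_valid).choose_spec.1
theorem τ0_tab : IsTable tab0 τ0 := (exists_mem_M24 tab0_valid).choose_spec.2

/-- The centraliser of `τ0` in `M24`. -/
noncomputable def C0 : Subgroup (Equiv.Perm GolayPt) := M24 ⊓ Subgroup.centralizer {τ0}

theorem mem_C0 {σ : Equiv.Perm GolayPt} : σ ∈ C0 ↔ σ ∈ M24 ∧ σ * τ0 = τ0 * σ := by
  unfold C0
  rw [Subgroup.mem_inf, Subgroup.mem_centralizer_singleton_iff]

/-- The table commutes with `tab0`. -/
def comm0 (n : ℕ) : Bool := Nat.beq (pmul n tab0) (pmul tab0 n)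

theorem comm0_iff {n : ℕ} {σ : Equiv.Perm GolayPt} (hT : IsTable n σ) : comm0 n = true ↔ σ * τ0 = τ0 * σ := by
  unfold comm0
  rw [Nat.beq_eq]
  have h1 := isTable_pmul hT τ0_tab
  have h2 := isTable_pmul τ0_tab hT
  constructor
  · intro h
    rw [h] at h1
    exact isTable_unique h1 h2
  · intro h
    rw [h] at h1
    exact isTable_inj h1 h2 (pmul_lt _ _) (pmul_lt _ _)

theorem inSub_C0 {n : ℕ} (h1 : validM24 n = true) (h2 : comm0 n = true) : InSub C0 n := by
  obtain ⟨σ, hσ, hT⟩ := exists_mem_M24 h1
  exact ⟨σ, mem_C0.2 ⟨hσ, (comm0_iff hT).1 h2⟩, hT⟩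

def c0L0 : List ℕ := [0x461324945aa5c859cccb35e3a0837, 0xc0ca3add64c488951ec9d46d282e2, 0x128702ca6f2552c5b6c8744d43dc01, 0x1d2e8040e9619f62496d08aaa9c5c5, 0x2013351502ab2f119ccea3d61959b0, 0x2d17694c4a685e6ac087432e9045c3, 0x33ec56caea1828c5c5c82402915667, 0x3ddb2b15e25d00e1a1918112154ea6, 0x43c03b9e0a2929333a35105a9b2e4c, 0x4cc818222713aab65c12b34a61d1ea, 0x55ccc3d861414046c970ace22751e9, 0x5baca69ee548233351f52402312192, 0x64c622be07092aaa02e9745a6b4968, 0x6b9e2a48e509a2c582e84aaa399216, 0x70932518975c0353a1937d2c069471, 0x786ac9d9d7444446c97031ca01a554, 0x81c05ba5731c8d4545cf10595459a4, 0x8902914d9652206ad1e705e4d5946e, 0x91a847c41585ce3759a5524530b10b, 0x9a142496cb0b58e182f1a3c9281cd5, 0xa01c68a1a13daeb64eb2196022254f, 0xac82e159488a5646947005deca1cd3, 0xb1e42595550a4d11dc0e621f3a120d, 0xbdab49ca307b9ac5a928398a418820]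
def c0L1 : List ℕ := [0xbdab49ca307b9ac5a928398a418820, 0xb9226729163b2144d66f1956d90440]
def c0L2 : List ℕ := [0xbdab49ca307b9ac5a928398a418820, 0xbaa53595afad92e198f14321420820, 0xbd8cf3b1d0a45b24254b9d46428820, 0xba1a5b3eab1cd8aa45c9810f230820, 0xbd1d68ca696d5ec59208194ca38820, 0xbd60f20d66a4a712a54e6d98740820, 0xb9c6b2da9393cd06b1047455548820, 0xbd5cb8b5e695264b31101952750820, 0xb8e9079d11230b3336d55264e58820, 0xb8deda1a51b2cb53c0934a90e60820, 0xb8ccc3bc91440aaa2e499d6ce68820, 0xba135540ab98d9621ccd7d23270820, 0xbc1719555672486994676228d78820, 0xb8ceb352d1934a97b10aacc8e80820, 0xbc2af9ac76a14889254c399cd88820, 0xbcdb4b0d877a2b12a92e8116690820, 0xbbe36730ea69a924120b28ea998820, 0xbda435d5302a9a69ba27431e4a0820, 0xbbc6d2c8cab1e8c5c08874669a8820, 0xba515616149914e19cd192dafb0820]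
def c0L3 : List ℕ := [0xb926faa22da3a0b6255231cb618820, 0xba1474922b3398d85676a3cb218820, 0xbae957b6289ba44b1cd0524ac18820, 0xbb1f3a4232ab916218ed4a8ab18820, 0xbb4c93ae2453ac893e8c9d4b018820, 0xbc0ea332364b892451ebaccad18820, 0xbc92655a2c3b9706cea47d0a818820, 0xbdab49ca307b9ac5a928398a418820]

theorem c0L0_ok : allB c0L0 (fun n => match validM24 n with | true => comm0 n | false => false) = true := by
  decide +kernel
theorem c0L1_ok : allB c0L1 (fun n => match validM24 n with | true => comm0 n | false => false) = true := by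
  decide +kernel
theorem c0L2_ok : allB c0L2 (fun n => match validM24 n with | true => comm0 n | false => false) = true := by
  decide +kernel

theorem inSub_of_ok {L : List ℕ} (h : allB L (fun n => match validM24 n with | true => comm0 n | false => false) = true) :
    ∀ n ∈ L, InSub C0 n := by
  intro n hn
  have h1 := allB_iff.1 h n hn
  cases h2 : validM24 n with
  | false => simp only [h2] at h1; exact absurd h1 (by simp)
  | true => simp only [h2] at h1; exact inSub_C0 h2 h1

theorem c0L0_level : levelCheck' c0L0 0 23 16777215 = true := by decide +kernel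
theorem c0L1_level : levelCheck' c0L1 8388609 1 6 = true := by decide +kernel
theorem c0L2_level : levelCheck' c0L2 8388615 3 8388600 = true := by decide +kernel

/-- `C0` is transitive on the 24 points. -/
theorem C0_transitive (p q : GolayPt) : ∃ c ∈ C0, c p = q := by
  obtain ⟨a, ha, _, h1⟩ := exists_of_level' (inSub_of_ok c0L0_ok) c0L0_level (by norm_num) (y := p) (testBit_fullMask p)
  obtain ⟨b, hb, _, h2⟩ := exists_of_level' (inSub_of_ok c0L0_ok) c0L0_level (by norm_num) (y := q) (testBit_fullMask q)
  refine ⟨b * a⁻¹, C0.mul_mem hb (C0.inv_mem ha), ?_⟩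
  rw [← h1, ← h2]; simp

/-! ### The canonical sextet -/

/-- Witnesses: pairs (index, tetrad moved by `tab0`). -/
def wit0 : List ℕ := [67155688, 536918706, 33634605, 17179949660, 67253952, 537016986, 2147759001, 8590212907, 2148021081, 8590475243, 9451779, 1074802926, 136331205, 4297078199, 138426821, 4299174839, 25181340, 1090532721, 302003758, 17448318303, 67163886, 536926900, 33642795, 17179957850, 67262150, 537025180, 2147767199, 8590221101, 2148029279, 8590483437, 9459973, 1074811112, 136339395, 4297086385, 138435011, 4299183025, 25189530, 1090540919, 302011944, 17448326489, 1124142172, 675316599, 17247079604, 2684914155, 92310132, 9127101849, 4833971973, 43057198, 1141933574, 369131718]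

def witAt (i w : ℕ) : Bool :=
  match Nat.beq (Nat.land w 4095) i with
  | false => false
  | true => fz (Nat.shiftRight w 12) fun u => match Nat.beq (synd u) i with
    | false => false
    | true => match Nat.beq (pop u) 4 with
      | false => false
      | true => match Nat.ble u 16777215 with
        | false => false
        | true => match Nat.beq (pmask tab0 u) u with
          | true => false
          | false => true

def anyB (L : List ℕ) (p : ℕ → Bool) : Bool :=
  List.rec (motive := fun _ => Bool) false (fun n _ ih => match p n with | true => true | false => ih) L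

theorem anyB_iff {L : List ℕ} {p : ℕ → Bool} : anyB L p = true ↔ ∃ n ∈ L, p n = true := by
  unfold anyB
  induction L with
  | nil => simp
  | cons a l ih =>
    rw [List.exists_mem_cons_iff, ← ih]
    cases hb : p a <;> simp [hb]

theorem wit0_check : allLT (fun i => match sextBit i with
    | false => true
    | true => match Nat.beq i 3186 with
      | true => true
      | false => match Nat.beq (stepS tab0 i) i with
        | false => true
        | true => anyB wit0 (witAt i)) 4096 = true := by
  decide +kernel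

/-- The only sextet all of whose tetrads are `τ0`-invariant. -/
theorem sextet_unique {S : Finset (Finset GolayPt)} (hS : S ∈ sextets) (h : ∀ u ∈ S, τ0 • u = u) : S = decS 3186 := by
  obtain ⟨i, hi, hb, rfl⟩ := sextet_exists_idx hS
  have h1 := allLT_iff.1 wit0_check i hi
  rw [hb] at h1
  by_cases h2 : i = 3186
  · rw [h2]
  · exfalso
    have h2' : Nat.beq i 3186 = false := beq_false_of_ne h2
    simp only [h2'] at h1
    have h3 : τ0 • decS i = decS i := by
      ext u
      rw [Finset.mem_smul_finset]
      constructor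
      · rintro ⟨v, hv, rfl⟩
        rw [h v hv]; exact hv
      · intro hu; exact ⟨u, hu, h u hu⟩
    rw [smul_decS_iff τ0_mem τ0_tab hi hb] at h3
    rw [h3, Nat.beq_refl] at h1
    obtain ⟨w, _, hw⟩ := anyB_iff.1 h1
    unfold witAt at hw
    cases e1 : Nat.beq (Nat.land w 4095) i with
    | false => rw [e1] at hw; exact absurd hw (by simp)
    | true =>
      rw [e1] at hw
      simp only [fz_eq] at hw
      generalize Nat.shiftRight w 12 = u at hw
      cases e2 : Nat.beq (synd u) i with
      | false => rw [e2] at hw; exact absurd hw (by simp)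
      | true =>
        rw [e2] at hw
        cases e3 : Nat.beq (pop u) 4 with
        | false => rw [e3] at hw; exact absurd hw (by simp)
        | true =>
          rw [e3] at hw
          cases e4 : Nat.ble u 16777215 with
          | false => rw [e4] at hw; exact absurd hw (by simp)
          | true =>
            rw [e4] at hw
            have hu : u < 2 ^ 24 := by
              have := Nat.le_of_ble_eq_true e4
              omega
            have h5 : ofMask u ∈ decS i := by
              rw [mem_decS, card_ofMask, maskOf_ofMask hu]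
              refine ⟨Nat.eq_of_beq_eq_true e3, ?_⟩
              rw [← synd_eq_iff hu (by omega)]
              rw [Nat.eq_of_beq_eq_true e2]
              symm
              rw [synd_def]
              have : i >>> 12 = 0 := by rw [Nat.shiftRight_eq_div_pow]; omega
              rw [this, enc_zero, Nat.xor_zero]
            have h6 := h _ h5
            rw [smul_ofMask τ0_tab hu] at h6
            have h7 := ofMask_injOn (pmask_lt τ0_tab u hu) hu h6
            rw [h7, Nat.beq_refl] at hw
            exact absurd hw (by simp)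

theorem sextBit_3186 : sextBit 3186 = true := by decide +kernel

theorem S0_mem : decS 3186 ∈ sextets := decS_mem (by norm_num) sextBit_3186

/-- The six tetrads of `decS 3186`. -/
def tets0 : List ℕ := [8388615, 147496, 4268048, 2621632, 268544, 1082880]

theorem tets0_check : allB tets0 (fun u => match Nat.ble u 16777215 with
    | false => false
    | true => match Nat.beq (pop u) 4 with
      | false => false
      | true => match inCode (Nat.xor u 3186) with
        | false => false
        | true => Nat.beq (pmask tab0 u) u) = true := by decide +kernel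

theorem tets0_spec : ∀ u ∈ tets0, u < 2 ^ 24 ∧ ofMask u ∈ decS 3186 ∧ τ0 • ofMask u = ofMask u := by
  intro u hu
  have h := allB_iff.1 tets0_check u hu
  cases e1 : Nat.ble u 16777215 with
  | false => simp only [e1] at h; exact absurd h (by simp)
  | true =>
    cases e2 : Nat.beq (pop u) 4 with
    | false => simp only [e1, e2] at h; exact absurd h (by simp)
    | true =>
      cases e3 : inCode (Nat.xor u 3186) with
      | false => simp only [e1, e2, e3] at h; exact absurd h (by simp)
      | true =>
        simp only [e1, e2, e3] at h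
        have hu : u < 2 ^ 24 := by
          have := Nat.le_of_ble_eq_true e1
          omega
        refine ⟨hu, ?_, ?_⟩
        · rw [mem_decS, card_ofMask, maskOf_ofMask hu]
          exact ⟨Nat.eq_of_beq_eq_true e2, e3⟩
        · rw [smul_ofMask τ0_tab hu, Nat.eq_of_beq_eq_true h]

theorem decS_3186_eq : decS 3186 = (tets0.map ofMask).toFinset := by
  symm
  apply Finset.eq_of_subset_of_card_le
  · intro x hx
    rw [List.mem_toFinset, List.mem_map] at hx
    obtain ⟨u, hu, rfl⟩ := hx
    exact (tets0_spec u hu).2.1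
  · rw [S0_mem.1, List.toFinset_card_of_nodup]
    · decide
    · apply List.Nodup.map_on
      · intro a ha b hb hab
        exact ofMask_injOn (tets0_spec a ha).1 (tets0_spec b hb).1 hab
      · decide

theorem S0_tetrads_inv : ∀ u ∈ decS 3186, τ0 • u = u := by
  intro x hx
  rw [decS_3186_eq, List.mem_toFinset, List.mem_map] at hx
  obtain ⟨u, hu, rfl⟩ := hx
  exact (tets0_spec u hu).2.2

/-- `C0` fixes the canonical sextet. -/
theorem C0_fixes_sextet {c : Equiv.Perm GolayPt} (hc : c ∈ C0) : c • decS 3186 = decS 3186 := by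
  rw [mem_C0] at hc
  apply sextet_unique (smul_mem_sextets hc.1 S0_mem)
  intro u hu
  rw [Finset.mem_smul_finset] at hu
  obtain ⟨v, hv, rfl⟩ := hu
  rw [smul_smul, ← hc.2, mul_smul, S0_tetrads_inv v hv]

/-! ### The order of `C0` -/

/-- The tetrad of `decS 3186` containing the point `23`. -/
abbrev T₁ : Finset GolayPt := ofMask 8388615

theorem T₁_mem : T₁ ∈ decS 3186 := (tets0_spec 8388615 (by decide)).2.1

theorem C0_fixes_T₁ {c : Equiv.Perm GolayPt} (hc : c ∈ C0) (h23 : c (pt 23) = pt 23) : c • T₁ = T₁ := by
  by_contra hne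
  have h1 : c • T₁ ∈ decS 3186 := by
    rw [← C0_fixes_sextet hc]; exact Finset.smul_mem_smul_finset T₁_mem
  have h2 := sextet_disjoint S0_mem h1 T₁_mem hne
  have h3 : pt 23 ∈ T₁ := by decide +kernel
  have h4 : pt 23 ∈ c • T₁ := by
    have h5 := (apply_mem_smul (σ := c)).2 h3
    rwa [h23] at h5
  exact Finset.disjoint_left.1 h2 h4 h3

theorem τ0_apply (i : ℕ) (hi : i < 24) : τ0 (pt i) = pt (papp tab0 i) := by
  apply idx_injective
  rw [τ0_tab, idx_pt hi, idx_pt]
  have : ∀ j < 24, papp tab0 j < 24 := by decide +kernel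
  exact this i hi

theorem C0_comm {c : Equiv.Perm GolayPt} (hc : c ∈ C0) (p : GolayPt) : c (τ0 p) = τ0 (c p) := by
  have := congrArg (fun e : Equiv.Perm GolayPt => e p) (mem_C0.1 hc).2
  simpa using this

theorem C0_fix_partner {c : Equiv.Perm GolayPt} (hc : c ∈ C0) {i j : ℕ} (hi : i < 24) (hij : papp tab0 i = j)
    (h : c (pt i) = pt i) : c (pt j) = pt j := by
  have h1 := C0_comm hc (pt i)
  rw [h, τ0_apply i hi, hij] at h1
  exact h1

noncomputable def C1 : Subgroup (Equiv.Perm GolayPt) := C0 ⊓ stabilizer (Equiv.Perm GolayPt) (pt 23)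
noncomputable def C2 : Subgroup (Equiv.Perm GolayPt) := C1 ⊓ stabilizer (Equiv.Perm GolayPt) (pt 1)
noncomputable def C3 : Subgroup (Equiv.Perm GolayPt) := C2 ⊓ stabilizer (Equiv.Perm GolayPt) (pt 3)

theorem mem_C1 {c : Equiv.Perm GolayPt} : c ∈ C1 ↔ c ∈ C0 ∧ c (pt 23) = pt 23 := Iff.rfl
theorem mem_C2 {c : Equiv.Perm GolayPt} : c ∈ C2 ↔ (c ∈ C0 ∧ c (pt 23) = pt 23) ∧ c (pt 1) = pt 1 := Iff.rfl
theorem mem_C3 {c : Equiv.Perm GolayPt} : c ∈ C3 ↔ ((c ∈ C0 ∧ c (pt 23) = pt 23) ∧ c (pt 1) = pt 1) ∧ c (pt 3) = pt 3 :=
  Iff.rfl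

theorem c0L3_closed : closedL c0L3 = true := by decide +kernel
theorem c0L3_ok : tabsOK c0L3 = true := by decide +kernel
theorem c0L3_fix : allFix c0L3 8536111 = true := by decide +kernel
theorem c0L3_comm : allB c0L3 comm0 = true := by decide +kernel
theorem c0L3_all : allB e16 (fun n => match comm0 n with | true => memL c0L3 n | false => true) = true := by
  decide +kernel

theorem C3_eq : C3 = ofList c0L3 c0L3_closed := by
  ext σ
  rw [mem_C3, mem_ofList]
  constructor
  · rintro ⟨⟨⟨h0, h23⟩, h1⟩, h3⟩
    have hK : σ ∈ KIn := by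
      rw [mem_KIn]
      refine ⟨(mem_C0.1 h0).1, ?_⟩
      intro i
      fin_cases i
      · exact h23
      · exact C0_fix_partner h0 (i := 23) (by norm_num) (by decide +kernel) h23
      · exact h1
      · exact C0_fix_partner h0 (i := 1) (by norm_num) (by decide +kernel) h1
      · exact h3
      · exact C0_fix_partner h0 (i := 3) (by norm_num) (by decide +kernel) h3
    obtain ⟨n, hn, hT⟩ := KIn_exhaust σ hK
    have h4 := allB_iff.1 c0L3_all n hn
    have h5 := (comm0_iff hT).2 (mem_C0.1 h0).2
    rw [h5] at h4
    exact ⟨n, memL_iff.1 h4, hT⟩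
  · rintro ⟨n, hn, hT⟩
    have h1 := ofList_le c0L3 c0L3_closed ⟨n, hn, hT⟩
    have h2 := fixesMask_of_tab hT (allFix_iff.1 c0L3_fix n hn)
    have h3 := (comm0_iff hT).1 (allB_iff.1 c0L3_comm n hn)
    exact ⟨⟨⟨mem_C0.2 ⟨h1, h3⟩, h2 _ (by decide)⟩, h2 _ (by decide)⟩, h2 _ (by decide)⟩

theorem card_C3 : Nat.card C3 = 8 := by
  rw [C3_eq, card_ofList _ _ c0L3_ok]
  rfl

theorem card_C2 : Nat.card C2 = 160 := by
  have h := PermChain.card_step C2 (pt 3) (n := 20) (m := 8) ?_ card_C3
  · exact h
  · have h3 : orbit C2 (pt 3) = ((ofMask 8388600 : Finset GolayPt) : Set GolayPt) := by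
      apply PermChain.orbit_eq_of
      · intro σ hσ
        rw [mem_C2] at hσ
        obtain ⟨⟨h0, h23⟩, h1⟩ := hσ
        have hT := C0_fixes_T₁ h0 h23
        have h4 : σ (pt 3) ∉ T₁ := by
          rw [← hT, apply_mem_smul]
          decide +kernel
        change σ (pt 3) ∈ _
        generalize σ (pt 3) = q at h4
        rw [Finset.mem_coe]
        revert q
        decide +kernel
      · intro y hy
        rw [Finset.mem_coe, mem_ofMask] at hy
        obtain ⟨σ, h4, h5, h6⟩ := exists_of_level' (inSub_of_ok c0L2_ok) c0L2_level (by norm_num) hy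
        exact ⟨σ, mem_C2.2 ⟨⟨h4, h5 _ (by decide)⟩, h5 _ (by decide)⟩, h6⟩
    rw [h3, ncard_ofMask]
    decide +kernel

theorem card_C1 : Nat.card C1 = 320 := by
  have h := PermChain.card_step C1 (pt 1) (n := 2) (m := 160) ?_ card_C2
  · exact h
  · have h3 : orbit C1 (pt 1) = ((ofMask 6 : Finset GolayPt) : Set GolayPt) := by
      apply PermChain.orbit_eq_of
      · intro σ hσ
        rw [mem_C1] at hσ
        obtain ⟨h0, h23⟩ := hσ
        have hT := C0_fixes_T₁ h0 h23
        have h4 : σ (pt 1) ∈ T₁ := by
          rw [← hT, apply_mem_smul]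
          decide +kernel
        have h5 : σ (pt 1) ≠ pt 23 := by
          rw [← h23]
          intro h; exact absurd (σ.injective h) (by decide)
        have h6 : σ (pt 1) ≠ pt 0 := by
          rw [← C0_fix_partner h0 (i := 23) (j := 0) (by norm_num) (by decide +kernel) h23]
          intro h; exact absurd (σ.injective h) (by decide)
        change σ (pt 1) ∈ _
        generalize σ (pt 1) = q at h4 h5 h6
        rw [Finset.mem_coe]
        revert q
        decide +kernel
      · intro y hy
        rw [Finset.mem_coe, mem_ofMask] at hy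
        obtain ⟨σ, h4, h5, h6⟩ := exists_of_level' (inSub_of_ok c0L1_ok) c0L1_level (by norm_num) hy
        exact ⟨σ, mem_C1.2 ⟨h4, h5 _ (by decide)⟩, h6⟩
    rw [h3, ncard_ofMask]
    decide +kernel

/-- The order of the centraliser of a fixed-point-free involution. -/
theorem card_C0 : Nat.card C0 = 7680 := by
  have h := PermChain.card_step C0 (pt 23) (n := 24) (m := 320) ?_ card_C1
  · exact h
  · have h3 : orbit C0 (pt 23) = Set.univ := by
      apply PermChain.orbit_eq_of
      · intro _ _; exact Set.mem_univ _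
      · intro y _; exact C0_transitive (pt 23) y
    rw [h3, Set.ncard_univ, natCard_golayPt]

/-- An element of order 3 commuting with `τ0`. -/
def tab3c : ℕ := 0x80d9342af1a80af498f45c82e159a4

theorem tab3c_inSub : InSub C0 tab3c := inSub_C0 (by decide +kernel) (by decide +kernel)

theorem fixCount_tab3c : fixCount tab3c = 0 := by decide +kernel

end Cfsg.Agent.Golay.Orb
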