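import Cfsg.Agent.Golay.OrbFix
import Cfsg.Agent.Golay.OrbThree

/-!
# Centraliser and normaliser in `M24` of a subgroup of order 7 (owner: helper91)

`card_C7 : |C(ζ)| = 42`, `card_N7 : |N(<ζ>)| = 126`.
-/

set_option autoImplicit false

namespace Cfsg.Agent.Golay.Orb

open Cfsg MulAction Cfsg.Agent.Golay
open scoped Pointwise

/-- An element of order 7 with a cycle inside `O₀`. -/
def tab7 : ℕ := 0xbd26849035b094c6c17279a2770065

theorem tab7_valid : validM24 tab7 = true := by decide +kernel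

noncomputable def ζ : Equiv.Perm GolayPt := (exists_mem_M24 tab7_valid).choose
theorem ζ_mem : ζ ∈ M24 := (exists_mem_M24 tab7_valid).choose_spec.1
theorem ζ_tab : IsTable tab7 ζ := (exists_mem_M24 tab7_valid).choose_spec.2

/-- The powers of `tab7`. -/
def pows7 : List ℕ := [0xbdab49ca307b9ac5a928398a418820, 0xbd26849035b094c6c17279a2770065, 0xba13259c73a020c555a4b182f115d1, 0xbc9646bdc9416ac84d47a187604441, 0xb91a75584b9466caa60f419d428403, 0xb9d4f8500d2052c9aeb69184888cae, 0xbbe16aa0aa38d6c4b674218120ba22]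

theorem pows7_step : ∀ k < 7, pmul tab7 (nthD pows7 k) = nthD pows7 ((k + 1) % 7) := by decide +kernel

theorem ζ_pow_tab (k : ℕ) : k < 7 → IsTable (nthD pows7 k) (ζ ^ k) := by
  induction k with
  | zero => intro _; rw [pow_zero]; exact isTable_one
  | succ k ih =>
    intro hk
    have h1 := isTable_pmul ζ_tab (ih (by omega))
    rw [pows7_step k (by omega), Nat.mod_eq_of_lt hk, ← pow_succ'] at h1
    exact h1

theorem ζ_pow_seven : ζ ^ 7 = 1 := by
  have h1 := isTable_pmul ζ_tab (ζ_pow_tab 6 (by norm_num))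
  rw [pows7_step 6 (by norm_num), ← pow_succ'] at h1
  exact isTable_unique h1 isTable_one

theorem ζ_ne_one : ζ ≠ 1 := by
  intro h
  have h1 := ζ_tab
  rw [h] at h1
  have := isTable_inj h1 isTable_one (by decide +kernel) (by norm_num)
  exact absurd this (by decide +kernel)

theorem orderOf_ζ : orderOf ζ = 7 := by
  have : Fact (Nat.Prime 7) := ⟨by norm_num⟩
  exact orderOf_eq_prime ζ_pow_seven ζ_ne_one

/-- Mask of the points moved by `ζ`. -/
theorem ζ_fix_iff (p : GolayPt) : ζ p ≠ p ↔ (8384447 : ℕ).testBit (idx p) = true := by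
  have h : ∀ i < 24, (papp tab7 i ≠ i ↔ (8384447 : ℕ).testBit i = true) := by decide +kernel
  rw [← h _ (idx_lt p), ← ζ_tab p]
  exact (not_congr idx_inj).symm

/-- The table `n` satisfies `n ζ = ζ ^ k n`. -/
def comm7 (k n : ℕ) : Bool := Nat.beq (pmul n tab7) (pmul (nthD pows7 k) n)

theorem comm7_iff {k n : ℕ} (hk : k < 7) {σ : Equiv.Perm GolayPt} (hT : IsTable n σ) :
    comm7 k n = true ↔ σ * ζ = ζ ^ k * σ := by
  unfold comm7
  rw [Nat.beq_eq]
  have h1 := isTable_pmul hT ζ_tab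
  have h2 := isTable_pmul (ζ_pow_tab k hk) hT
  constructor
  · intro h
    rw [h] at h1
    exact isTable_unique h1 h2
  · intro h
    rw [h] at h1
    exact isTable_inj h1 h2 (pmul_lt _ _) (pmul_lt _ _)

/-- `comm7 k n` for some `1 ≤ k < 7` -/
def anyB7 (n : ℕ) : Bool :=
  match comm7 1 n with
  | true => true
  | false => match comm7 2 n with
    | true => true
    | false => comm7 4 n

theorem anyB7_spec {n : ℕ} (h : anyB7 n = true) : ∃ k < 7, comm7 k n = true := by
  unfold anyB7 at h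
  cases h1 : comm7 1 n with
  | true => exact ⟨1, by norm_num, h1⟩
  | false =>
    rw [h1] at h
    cases h2 : comm7 2 n with
    | true => exact ⟨2, by norm_num, h2⟩
    | false =>
      rw [h2] at h
      exact ⟨4, by norm_num, h⟩

/-- The centraliser of `ζ` in `M24`. -/
noncomputable def C7 : Subgroup (Equiv.Perm GolayPt) := M24 ⊓ Subgroup.centralizer {ζ}

theorem mem_C7 {σ : Equiv.Perm GolayPt} : σ ∈ C7 ↔ σ ∈ M24 ∧ σ * ζ = ζ * σ := by
  unfold C7
  rw [Subgroup.mem_inf, Subgroup.mem_centralizer_singleton_iff]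

/-- The normaliser of `<ζ>` in `M24`. -/
noncomputable def N7 : Subgroup (Equiv.Perm GolayPt) :=
  M24 ⊓ Subgroup.normalizer ((Subgroup.zpowers ζ : Subgroup (Equiv.Perm GolayPt)) : Set (Equiv.Perm GolayPt))

theorem mem_zpowers_ζ {x : Equiv.Perm GolayPt} : x ∈ Subgroup.zpowers ζ ↔ ∃ k < 7, x = ζ ^ k := by
  constructor
  · intro h
    obtain ⟨k, hk⟩ := Subgroup.mem_zpowers_iff.1 h
    refine ⟨(k % 7).toNat, by omega, ?_⟩
    rw [← zpow_natCast, Int.toNat_of_nonneg (Int.emod_nonneg _ (by norm_num)), ← hk]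
    have := zpow_mod_orderOf ζ k
    rw [orderOf_ζ] at this
    exact this.symm
  · rintro ⟨k, _, rfl⟩
    exact Subgroup.pow_mem _ (Subgroup.mem_zpowers ζ) k

theorem mem_N7 {σ : Equiv.Perm GolayPt} : σ ∈ N7 ↔ σ ∈ M24 ∧ ∃ k < 7, σ * ζ = ζ ^ k * σ := by
  unfold N7
  rw [Subgroup.mem_inf]
  apply and_congr_right
  intro _
  constructor
  · intro h
    have h1 := (Subgroup.mem_normalizer_iff.1 h ζ).1 (Subgroup.mem_zpowers ζ)
    obtain ⟨k, hk, h2⟩ := mem_zpowers_ζ.1 h1
    exact ⟨k, hk, by rw [← h2]; group⟩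
  · rintro ⟨k, hk, h⟩
    apply Subgroup.mem_normalizer_fintype
    intro n hn
    have hn' : n ∈ Subgroup.zpowers ζ := hn
    obtain ⟨j, _, rfl⟩ := mem_zpowers_ζ.1 hn'
    have h1 : σ * ζ * σ⁻¹ = ζ ^ k := by rw [h, mul_inv_cancel_right]
    have h2 : σ * ζ ^ j * σ⁻¹ = ζ ^ (k * j) := by rw [pow_mul, ← h1, conj_pow]
    rw [h2]
    exact Subgroup.pow_mem _ (Subgroup.mem_zpowers ζ) _

theorem C7_le_N7 : C7 ≤ N7 := by
  intro σ hσ
  rw [mem_C7] at hσ
  exact mem_N7.2 ⟨hσ.1, 1, by norm_num, by rw [pow_one]; exact hσ.2⟩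

/-- `N7` preserves the set of points moved by `ζ`. -/
theorem N7_moved {σ : Equiv.Perm GolayPt} (hσ : σ ∈ N7) {p : GolayPt} (hp : ζ p ≠ p) : ζ (σ p) ≠ σ p := by
  intro h
  apply hp
  have h1 : σ⁻¹ ∈ N7 := N7.inv_mem hσ
  obtain ⟨_, k, hk, h2⟩ := mem_N7.1 h1
  have h3 : ζ ^ k * σ⁻¹ = σ⁻¹ * ζ := h2.symm
  have h4 : (ζ ^ k) p = p := by
    have := congrArg (fun e : Equiv.Perm GolayPt => e (σ p)) h3
    simp only [Equiv.Perm.mul_apply] at this
    rw [h] at this
    simpa using this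
  -- `ζ ^ k` fixes `p`, with `k` prime to 7
  have hk0 : k ≠ 0 := by
    rintro rfl
    rw [pow_zero, one_mul] at h2
    have : ζ = 1 := mul_left_cancel (h2.trans (mul_one _).symm)
    exact ζ_ne_one this
  have hcop : Nat.Coprime k 7 := by
    interval_cases k <;> first | (exfalso; exact hk0 rfl) | decide
  obtain ⟨j, hj⟩ := exists_pow_eq_self_of_coprime (x := ζ) (n := k) (by rw [orderOf_ζ]; exact hcop)
  rw [← hj]
  have h5 : ∀ m : ℕ, ((ζ ^ k) ^ m) p = p := by
    intro m
    induction m with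
    | zero => simp
    | succ m ih => rw [pow_succ', Equiv.Perm.mul_apply, ih, h4]
  exact h5 j

/-- Transversal in `C7`. -/
def c7L0 : List ℕ := [0xba91094e346b9e63d8955b0a918820, 0xbc9646bdc9416ac84d47a187604441, 0xbbe16aa0aa38d6c4b674218120ba22, 0xb91a75584b9466caa60f419d428403, 0x30dae501eb0a26caa6028dce5a4ac4, 0xbc2552242850ac67d0f36b22b70065, 0x33942816cd1c92c9aea00ddf141287, 0x3547372c81858b7044495324d7d0e8, 0x60deeb01a70d646412828dd6584d49, 0x65a340caa57ac577006839a044b66a, 0x61c0f2d14224c770ba36919a8aa60b, 0x60a8044616724e623e451dd419aead, 0xbaecda400f4848691d0a9b05588cae, 0x30a00ac68a7116c4b6651dec191d0f, 0x6502819271b3417115d279aa75a930, 0xba13259c73a020c555a4b182f115d1, 0x30563688e98d2ac84d4e2dc80b21f2, 0x604e3789648c106a4ace2dd20555b3, 0x340351a65153c17115d36b10b3d894, 0x6207271d21a28b704444b1a6f6c175, 0x32a300cd0569c57700755b28923e56]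

theorem c7L0_ok : allB c7L0 (fun n => match validM24 n with | true => comm7 1 n | false => false) = true := by
  decide +kernel

theorem c7L0_inSub : ∀ n ∈ c7L0, InSub C7 n := by
  intro n hn
  have h1 := allB_iff.1 c7L0_ok n hn
  cases h2 : validM24 n with
  | false => simp only [h2] at h1; exact absurd h1 (by simp)
  | true =>
    simp only [h2] at h1
    obtain ⟨σ, hσ, hT⟩ := exists_mem_M24 h2
    have h3 := (comm7_iff (by norm_num) hT).1 h1
    rw [pow_one] at h3
    exact ⟨σ, mem_C7.2 ⟨hσ, h3⟩, hT⟩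

theorem c7L0_level : levelCheck' c7L0 0 0 8384447 = true := by decide +kernel

/-- The orbit of `pt 0`. -/
theorem orbit_of_le {H : Subgroup (Equiv.Perm GolayPt)} (h1 : C7 ≤ H) (h2 : H ≤ N7) :
    (orbit H (pt 0)).ncard = 21 := by
  have h3 : orbit H (pt 0) = ((ofMask 8384447 : Finset GolayPt) : Set GolayPt) := by
    apply PermChain.orbit_eq_of
    · intro σ hσ
      rw [Finset.mem_coe, mem_ofMask, ← ζ_fix_iff]
      exact N7_moved (h2 hσ) ((ζ_fix_iff _).2 (by decide +kernel))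
    · intro y hy
      rw [Finset.mem_coe, mem_ofMask] at hy
      obtain ⟨σ, h4, _, h6⟩ := exists_of_level' c7L0_inSub c7L0_level (by norm_num) hy
      exact ⟨σ, h1 h4, h6⟩
  rw [h3, ncard_ofMask]
  decide +kernel

/-- For each `k` an element of `M24` sending `ζ ^ i (pt 0)` to `ζ ^ (k i) (pt 0)` at five base points, fixing `23`. -/
def w7 : List ℕ := [0xbdab49ca307b9ac5a928398a418820, 0xbdab49ca307b9ac5a928398a418820, 0xbb68cb2866986483bc905d6292b840, 0xbc1949d4afb08923352b3a02a70e20, 0xbaa893aca498a467d9106b075885c0, 0xbcdb282c64406d47a54c31dd5144a0, 0xbc8f3a5a2c4b9b0599e8aa84409460]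

theorem w7_valid : allB w7 validM24 = true := by decide +kernel

/-- position of the base points in the cycle of `pt 0` -/
def pos7 : List ℕ := [0, 0, 3, 6, 4, 1]

theorem pos7_spec : ∀ i : Fin 6, i ≠ 0 → nthD pos7 i < 7 ∧ papp (nthD pows7 (nthD pos7 i)) 0 = idx (baseIn i) := by
  decide +kernel

theorem w7_spec : ∀ k < 7, k ≠ 0 → ∀ i : Fin 6, i ≠ 0 →
    papp (nthD w7 k) (idx (baseIn i)) = papp (nthD pows7 (k * nthD pos7 i % 7)) 0 := by
  decide +kernel

theorem w7_spec0 : ∀ k < 7, papp (nthD w7 k) 23 = 23 := by decide +kernel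

/-- The stabiliser of `pt 0` in the normaliser. -/
def n7L : List ℕ := [0xba8957b468584e695a899b2302b840, 0xba91094e346b9e63d8955b0a918820, 0xbaa893aca498a467d9106b075885c0, 0xbd9286bc753856c9aa0491a342b840, 0xbda0459ca990a6c6aab479868885c0, 0xbdab49ca307b9ac5a928398a418820]
/-- The stabiliser of `pt 0` in the centraliser. -/
def c7L : List ℕ := [0xba91094e346b9e63d8955b0a918820, 0xbdab49ca307b9ac5a928398a418820]

theorem n7L_all : allLT (fun k => match Nat.beq k 0 with
    | true => true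
    | false => allB e16 (fun e => fz (pmul (nthD w7 k) e) fun n =>
      match comm7 k n with | true => memL n7L n | false => true)) 7 = true := by decide +kernel

theorem c7L_all : allB n7L (fun n => match comm7 1 n with | true => memL c7L n | false => true) = true := by
  decide +kernel

theorem n7L_closed : closedL n7L = true := by decide +kernel
theorem n7L_ok : tabsOK n7L = true := by decide +kernel
theorem c7L_closed : closedL c7L = true := by decide +kernel
theorem c7L_ok : tabsOK c7L = true := by decide +kernel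
theorem n7L_fix : allFix n7L 1 = true := by decide +kernel
theorem c7L_fix : allFix c7L 1 = true := by decide +kernel
theorem n7L_comm : allB n7L (fun n => anyB7 n) = true := by decide +kernel
theorem c7L_comm : allB c7L (fun n => comm7 1 n) = true := by decide +kernel

/-- The stabiliser of `pt 0` in `N7` is given by the list `n7L`. -/
theorem N7_stab {σ : Equiv.Perm GolayPt} (hσ : σ ∈ N7) (h0 : σ (pt 0) = pt 0) : ∃ n ∈ n7L, IsTable n σ := by
  obtain ⟨hM, k, hk, hc⟩ := mem_N7.1 hσ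
  have hk0 : k ≠ 0 := by
    rintro rfl
    rw [pow_zero, one_mul] at hc
    exact ζ_ne_one (mul_left_cancel (hc.trans (mul_one _).symm))
  -- powers
  have hpow : ∀ j : ℕ, σ * ζ ^ j = ζ ^ (k * j) * σ := by
    intro j
    have h1 : σ * ζ * σ⁻¹ = ζ ^ k := by rw [hc, mul_inv_cancel_right]
    rw [pow_mul, ← h1, conj_pow]; group
  have happ : ∀ j : ℕ, σ ((ζ ^ j) (pt 0)) = (ζ ^ (k * j % 7)) (pt 0) := by
    intro j
    have h1 := congrArg (fun e : Equiv.Perm GolayPt => e (pt 0)) (hpow j)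
    simp only [Equiv.Perm.mul_apply] at h1
    rw [h1, h0, ← pow_mod_orderOf ζ (k * j), orderOf_ζ]
  have hpt : ∀ j < 7, (ζ ^ j) (pt 0) = pt (papp (nthD pows7 j) 0) := by
    intro j hj
    apply idx_injective
    rw [ζ_pow_tab j hj, idx_pt (by norm_num), idx_pt]
    have : ∀ j < 7, papp (nthD pows7 j) 0 < 24 := by decide +kernel
    exact this j hj
  -- the element `w`
  have hw : validM24 (nthD w7 k) = true := by
    have hmem : ∀ k < 7, nthD w7 k ∈ w7 := by decide +kernel
    exact allB_iff.1 w7_valid _ (hmem k hk)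
  obtain ⟨ω, hω, hωT⟩ := exists_mem_M24 hw
  have hbase : ∀ i : Fin 6, i ≠ 0 → σ (baseIn i) = ω (baseIn i) := by
    intro i hi
    obtain ⟨h1, h2⟩ := pos7_spec i hi
    have h3 : baseIn i = (ζ ^ nthD pos7 i) (pt 0) := by
      rw [hpt _ h1]
      apply idx_injective
      rw [h2, idx_pt (idx_lt _)]
    have h4 : ω (baseIn i) = (ζ ^ (k * nthD pos7 i % 7)) (pt 0) := by
      rw [hpt _ (Nat.mod_lt _ (by norm_num))]
      apply idx_injective
      rw [hωT, w7_spec k hk hk0 i hi, idx_pt]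
      have : ∀ j < 7, papp (nthD pows7 j) 0 < 24 := by decide +kernel
      exact this _ (Nat.mod_lt _ (by norm_num))
    rw [h4, ← happ, ← h3]
  -- both fix `pt 23`: the cycle of `pt 0` is `O₀` without `pt 23`
  have h23 : σ (pt 23) = pt 23 := by
    have hA : ∀ q, q ∈ O₀ → q ≠ pt 23 → ∃ j < 7, q = (ζ ^ j) (pt 0) := by
      intro q hq hq23
      have key : ∀ q ∈ O₀, q ≠ pt 23 → ∃ j < 7, q = pt (papp (nthD pows7 j) 0) := by decide +kernel
      obtain ⟨j, hj, h⟩ := key q hq hq23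
      exact ⟨j, hj, by rw [hpt j hj]; exact h⟩
    have hB : ∀ j < 7, (ζ ^ j) (pt 0) ∈ O₀ ∧ (ζ ^ j) (pt 0) ≠ pt 23 := by
      intro j hj
      rw [hpt j hj]
      have key : ∀ j < 7, pt (papp (nthD pows7 j) 0) ∈ O₀ ∧ pt (papp (nthD pows7 j) 0) ≠ pt 23 := by decide +kernel
      exact key j hj
    have hsub : ∀ q ∈ O₀, q ≠ pt 23 → σ q ∈ O₀ ∧ σ q ≠ pt 23 := by
      intro q hq hq23
      obtain ⟨j, hj, rfl⟩ := hA q hq hq23
      rw [happ]
      exact hB _ (Nat.mod_lt _ (by norm_num))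
    have hO : σ • O₀ = O₀ := by
      apply octad_eq_of_subset ((smul_mem_octads hM).2 O₀_mem) O₀_mem (s := (O₀.erase (pt 23)).image σ)
      · intro p hp
        rw [Finset.mem_image] at hp
        obtain ⟨q, hq, rfl⟩ := hp
        exact apply_mem_smul.2 (Finset.mem_of_mem_erase hq)
      · intro p hp
        rw [Finset.mem_image] at hp
        obtain ⟨q, hq, rfl⟩ := hp
        rw [Finset.mem_erase] at hq
        exact (hsub q hq.2 hq.1).1
      · rw [Finset.card_image_of_injective _ σ.injective, Finset.card_erase_of_mem (by decide +kernel),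
          card_octad O₀_mem]
        norm_num
    by_contra hne
    have h1 : σ⁻¹ (pt 23) ∈ O₀ := by
      have : pt 23 ∈ σ • O₀ := by rw [hO]; decide +kernel
      rw [← Finset.inv_smul_mem_iff] at this
      exact this
    have h2 : σ⁻¹ (pt 23) ≠ pt 23 := by
      intro h
      apply hne
      have := congrArg σ h
      simpa using this.symm
    have h3 := (hsub _ h1 h2).2
    simp at h3
  have h23' : ω (pt 23) = pt 23 := by
    apply idx_injective
    rw [hωT, idx_pt (by norm_num), w7_spec0 k hk]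
  have hK : ω⁻¹ * σ ∈ KIn := by
    rw [mem_KIn]
    refine ⟨M24.mul_mem (M24.inv_mem hω) hM, fun i => ?_⟩
    rw [Equiv.Perm.mul_apply, Equiv.Perm.inv_eq_iff_eq]
    by_cases hi : i = 0
    · subst hi
      exact h23.trans h23'.symm
    · exact hbase i hi
  obtain ⟨e, he, heT⟩ := KIn_exhaust _ hK
  have h5 := isTable_pmul hωT heT
  rw [mul_inv_cancel_left] at h5
  have h6 := allLT_iff.1 n7L_all k hk
  have h7 : Nat.beq k 0 = false := beq_false_of_ne hk0
  rw [h7] at h6
  have h8 := allB_iff.1 h6 e he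
  rw [fz_eq, (comm7_iff hk h5).2 hc] at h8
  exact ⟨_, memL_iff.1 h8, h5⟩

theorem N7_stab_eq : (N7 ⊓ stabilizer (Equiv.Perm GolayPt) (pt 0) : Subgroup _) = ofList n7L n7L_closed := by
  ext σ
  rw [Subgroup.mem_inf, mem_ofList]
  constructor
  · rintro ⟨h1, h2⟩
    exact N7_stab h1 h2
  · rintro ⟨n, hn, hT⟩
    have h1 := ofList_le n7L n7L_closed ⟨n, hn, hT⟩
    have h2 := fixesMask_of_tab hT (allFix_iff.1 n7L_fix n hn)
    obtain ⟨k, hk, h3⟩ := anyB7_spec (allB_iff.1 n7L_comm n hn)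
    exact ⟨mem_N7.2 ⟨h1, k, hk, (comm7_iff hk hT).1 h3⟩, h2 _ (by decide)⟩

theorem C7_stab_eq : (C7 ⊓ stabilizer (Equiv.Perm GolayPt) (pt 0) : Subgroup _) = ofList c7L c7L_closed := by
  ext σ
  rw [Subgroup.mem_inf, mem_ofList]
  constructor
  · rintro ⟨h1, h2⟩
    obtain ⟨n, hn, hT⟩ := N7_stab (C7_le_N7 h1) h2
    have h3 := allB_iff.1 c7L_all n hn
    have h4 : comm7 1 n = true := (comm7_iff (by norm_num) hT).2 (by rw [pow_one]; exact (mem_C7.1 h1).2)
    rw [h4] at h3
    exact ⟨n, memL_iff.1 h3, hT⟩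
  · rintro ⟨n, hn, hT⟩
    have h1 := ofList_le c7L c7L_closed ⟨n, hn, hT⟩
    have h2 := fixesMask_of_tab hT (allFix_iff.1 c7L_fix n hn)
    have h3 := (comm7_iff (by norm_num) hT).1 (allB_iff.1 c7L_comm n hn)
    rw [pow_one] at h3
    exact ⟨mem_C7.2 ⟨h1, h3⟩, h2 _ (by decide)⟩

theorem card_N7 : Nat.card N7 = 126 := by
  have h := PermChain.card_step N7 (pt 0) (n := 21) (m := 6) (orbit_of_le C7_le_N7 le_rfl)
    (by rw [N7_stab_eq, card_ofList _ _ n7L_ok]; rfl)
  exact h

theorem card_C7 : Nat.card C7 = 42 := by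
  have h := PermChain.card_step C7 (pt 0) (n := 21) (m := 2) (orbit_of_le le_rfl C7_le_N7)
    (by rw [C7_stab_eq, card_ofList _ _ c7L_ok]; rfl)
  exact h

/-- `N7` fixes the trio number 341. -/
theorem N7_fixes_trio {σ : Equiv.Perm GolayPt} (hσ : σ ∈ N7) : σ • decT 341 = decT 341 := by
  have hc : allB c7L0 (fun n => fixT n 341) = true := by decide +kernel
  have hn : allB n7L (fun n => fixT n 341) = true := by decide +kernel
  have h1 : (8384447 : ℕ).testBit (idx (σ (pt 0))) = true := by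
    rw [← ζ_fix_iff]
    exact N7_moved hσ ((ζ_fix_iff _).2 (by decide +kernel))
  -- find the element of the transversal
  have h2 := (levelCheck'_iff.1 c7L0_level).2
  rw [← h2, testBit_orbMask] at h1
  obtain ⟨n, hn', hnb⟩ := h1
  obtain ⟨τ, hτ, hT⟩ := c7L0_inSub n hn'
  have h3 : τ (pt 0) = σ (pt 0) := by
    apply idx_injective
    rw [hT, idx_pt (by norm_num)]
    exact hnb
  have h4 : τ⁻¹ * σ ∈ N7 := N7.mul_mem (N7.inv_mem (C7_le_N7 hτ)) hσ
  obtain ⟨m, hm, hmT⟩ := N7_stab h4 (by rw [Equiv.Perm.mul_apply, Equiv.Perm.inv_eq_iff_eq, h3])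
  have h5 := (smul_decT_iff (mem_C7.1 hτ).1 hT (k := 341) (by norm_num)).2 (allB_iff.1 hc n hn')
  have h6 := (smul_decT_iff (mem_N7.1 h4).1 hmT (k := 341) (by norm_num)).2 (allB_iff.1 hn m hm)
  have h7 : σ = τ * (τ⁻¹ * σ) := by rw [mul_inv_cancel_left]
  rw [h7, mul_smul, h6, h5]

/-- Two noncommuting elements of `C7`. -/
def nc7a : ℕ := 0xba91094e346b9e63d8955b0a918820
def nc7b : ℕ := 0x30dae501eb0a26caa6028dce5a4ac4

theorem C7_nonabelian : ∃ x ∈ C7, ∃ y ∈ C7, x * y ≠ y * x := by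
  have va : validM24 nc7a = true := by decide +kernel
  have vb : validM24 nc7b = true := by decide +kernel
  obtain ⟨a, ha, hTa⟩ := exists_mem_M24 va
  obtain ⟨b, hb, hTb⟩ := exists_mem_M24 vb
  have ca := (comm7_iff (k := 1) (by norm_num) hTa).1 (by decide +kernel)
  have cb := (comm7_iff (k := 1) (by norm_num) hTb).1 (by decide +kernel)
  rw [pow_one] at ca cb
  refine ⟨a, mem_C7.2 ⟨ha, ca⟩, b, mem_C7.2 ⟨hb, cb⟩, ?_⟩
  intro h
  have h1 := isTable_pmul hTa hTb
  rw [h] at h1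
  have h2 := isTable_inj h1 (isTable_pmul hTb hTa) (pmul_lt _ _) (pmul_lt _ _)
  exact absurd h2 (by decide +kernel)

end Cfsg.Agent.Golay.Orb
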