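import Mathlib
import Cfsg.Agent.ClassBase.RelHom
import Cfsg.Agent.ClassBase.PSL
import Cfsg.Agent.Golay.Simple
import Cfsg.Agent.S0243

/-!
# Three-point stabilisers in M24 are PSL(3,4) (owner: helper7)
-/

set_option autoImplicit false
set_option linter.unusedVariables false
open Cfsg MulAction Matrix

namespace Cfsg.Agent.Golay.PSL34

/-- A homomorphism from a relation preserved by generators; the target acts. -/
theorem exists_hom_act {G T X A : Type*} [Group G] [Group T] [MulAction G X] [MulAction T A]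
    (P : X → Prop) (R : X → A → Bool) (S : Set G) (hS : Subgroup.closure S = ⊤)
    (hf : ∀ s ∈ S, ∃ σ : T, ∀ x, (P (s • x) ↔ P x) ∧ (P x → ∀ a, R (s • x) (σ • a) = R x a))
    (hsep : ∀ t : T, (∀ x, P x → ∀ a, R x (t • a) = R x a) → t = 1) :
    ∃ φ : G →* T, ∀ g x, P x → ∀ a, R (g • x) (φ g • a) = R x a := by
  classical
  let Γ : Subgroup (G × T) :=
    { carrier := {p | ∀ x, (P (p.1 • x) ↔ P x) ∧ (P x → ∀ a, R (p.1 • x) (p.2 • a) = R x a)}
      one_mem' := by intro x; simp
      mul_mem' := by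
        intro p q hp hq x
        refine ⟨?_, ?_⟩
        · rw [Prod.fst_mul, mul_smul, (hp _).1, (hq _).1]
        · intro hx a
          rw [Prod.fst_mul, Prod.snd_mul, mul_smul, mul_smul]
          rw [(hp _).2 ((hq x).1.2 hx), (hq x).2 hx]
      inv_mem' := by
        intro p hp x
        have h1 : P (p.1⁻¹ • x) ↔ P x := by
          have := (hp (p.1⁻¹ • x)).1
          rw [smul_inv_smul] at this
          exact this.symm
        refine ⟨h1, ?_⟩
        intro hx a
        have h2 := (hp (p.1⁻¹ • x)).2 (h1.2 hx) (p.2⁻¹ • a)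
        rw [smul_inv_smul, smul_inv_smul] at h2
        exact h2.symm }
  have huniq : ∀ g : G, ∀ t t' : T, (g, t) ∈ Γ → (g, t') ∈ Γ → t = t' := by
    intro g t t' h h'
    have h3 : (1, t⁻¹ * t') ∈ Γ := by
      have := Γ.mul_mem (Γ.inv_mem h) h'
      simpa using this
    have h4 : t⁻¹ * t' = 1 := by
      apply hsep
      intro x hx a
      have := (h3 x).2 hx a
      simpa using this
    exact (inv_mul_eq_one.1 h4)
  have hsurj : ∀ g : G, ∃ t : T, (g, t) ∈ Γ := by
    intro g
    have hg : g ∈ (Γ.map (MonoidHom.fst G T)) := by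
      have htop : (⊤ : Subgroup G) ≤ Γ.map (MonoidHom.fst G T) := by
        rw [← hS, Subgroup.closure_le]
        intro s hs
        obtain ⟨σ, h⟩ := hf s hs
        exact ⟨(s, σ), h, rfl⟩
      exact htop trivial
    obtain ⟨⟨g', t⟩, ht, rfl⟩ := hg
    exact ⟨t, ht⟩
  choose φ hφ using hsurj
  refine ⟨{ toFun := φ, map_one' := ?_, map_mul' := ?_ }, ?_⟩
  · exact huniq 1 _ _ (hφ 1) Γ.one_mem
  · intro a b
    exact huniq (a * b) _ _ (hφ _) (Γ.mul_mem (hφ a) (hφ b))
  · intro g x hx a
    exact (hφ g x).2 hx a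

/-- Model of the field with four elements. -/
abbrev K4 := QuadraticAlgebra (ZMod 2) 1 1

instance k4Fact : Fact (∀ r : ZMod 2, r ^ 2 ≠ 1 + 1 * r) := ⟨by decide⟩

instance k4Fintype : Fintype K4 := Fintype.ofEquiv _ (QuadraticAlgebra.equivProd (1 : ZMod 2) 1).symm

theorem card_k4 : Fintype.card K4 = 4 := by
  rw [Fintype.card_congr (QuadraticAlgebra.equivProd (1 : ZMod 2) 1), Fintype.card_prod, ZMod.card]

/-- number of an element of `K4` -/
def num (x : K4) : ℕ := x.re.val + 2 * x.im.val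

def labTab : List ℕ := [0, 2, 2, 2, 3, 5, 14, 17, 3, 17, 5, 14, 3, 14, 17, 5, 4, 13, 16, 22, 11, 8, 18, 12, 19, 6, 7,
  21, 20, 10, 9, 15, 4, 22, 13, 16, 20, 15, 10, 9, 11, 12, 8, 18, 19, 21, 6, 7, 4, 16, 22, 13, 19, 7, 21, 6, 20, 9,
  15, 10, 11, 18, 12, 8]

/-- label of a vector: index of a point -/
def lab (x y z : K4) : ℕ := labTab.getD (16 * num x + 4 * num y + num z) 0

def om : K4 := ⟨0, 1⟩

/-- tables of the transvections `(i,j,c)` -/
def t011 : ℕ := 984370798342469428377360417207715872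
def t012 : ℕ := 984674686509231270848998217272133664
def t021 : ℕ := 976908108085554797803774220334904352
def t022 : ℕ := 958572796407684634971422541721229344
def t101 : ℕ := 971592882964418941354553515258775584
def t102 : ℕ := 983548720921252936276249910206105632
def t121 : ℕ := 975366630392323105260605610366440480
def t122 : ℕ := 971594099268302134235014375640515616
def t201 : ℕ := 976448692869377735270425038196672544
def t202 : ℕ := 972512676110088067912772961567868960
def t211 : ℕ := 984202951082164080105044112956360736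
def t212 : ℕ := 984724508489452699215480746259449888

set_option maxRecDepth 100000 in
theorem chk01 : ∀ x y z : K4, (x ≠ 0 ∨ y ≠ 0 ∨ z ≠ 0) →
    lab (x + 1 * y) y z = papp t011 (lab x y z) ∧ lab (x + om * y) y z = papp t012 (lab x y z) := by
  decide +kernel

set_option maxRecDepth 100000 in
theorem chk02 : ∀ x y z : K4, (x ≠ 0 ∨ y ≠ 0 ∨ z ≠ 0) →
    lab (x + 1 * z) y z = papp t021 (lab x y z) ∧ lab (x + om * z) y z = papp t022 (lab x y z) := by
  decide +kernel

set_option maxRecDepth 100000 in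
theorem chk10 : ∀ x y z : K4, (x ≠ 0 ∨ y ≠ 0 ∨ z ≠ 0) →
    lab x (y + 1 * x) z = papp t101 (lab x y z) ∧ lab x (y + om * x) z = papp t102 (lab x y z) := by
  decide +kernel

set_option maxRecDepth 100000 in
theorem chk12 : ∀ x y z : K4, (x ≠ 0 ∨ y ≠ 0 ∨ z ≠ 0) →
    lab x (y + 1 * z) z = papp t121 (lab x y z) ∧ lab x (y + om * z) z = papp t122 (lab x y z) := by
  decide +kernel

set_option maxRecDepth 100000 in
theorem chk20 : ∀ x y z : K4, (x ≠ 0 ∨ y ≠ 0 ∨ z ≠ 0) →
    lab x y (z + 1 * x) = papp t201 (lab x y z) ∧ lab x y (z + om * x) = papp t202 (lab x y z) := by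
  decide +kernel

set_option maxRecDepth 100000 in
theorem chk21 : ∀ x y z : K4, (x ≠ 0 ∨ y ≠ 0 ∨ z ≠ 0) →
    lab x y (z + 1 * y) = papp t211 (lab x y z) ∧ lab x y (z + om * y) = papp t212 (lab x y z) := by
  decide +kernel

set_option maxRecDepth 100000 in
theorem chkScal : ∀ r : K4, r ≠ 0 → ∀ x y z : K4, lab (r * x) (r * y) (r * z) = lab x y z := by
  decide +kernel

set_option synthInstance.maxHeartbeats 200000 in
set_option synthInstance.maxSize 1000 in
theorem chkLab' : ∀ i : Fin 24, (i.val = 23 ∨ i.val = 0 ∨ i.val = 1) ∨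
    ∃ x y z : K4, (x ≠ 0 ∨ y ≠ 0 ∨ z ≠ 0) ∧ lab x y z = i.val := by
  decide +kernel

theorem chkLab (i : ℕ) (hi : i < 24) (h0 : i ≠ 23) (h1 : i ≠ 0) (h2 : i ≠ 1) :
    ∃ x y z : K4, (x ≠ 0 ∨ y ≠ 0 ∨ z ≠ 0) ∧ lab x y z = i := by
  rcases chkLab' ⟨i, hi⟩ with h | h
  · exact absurd h (by simp [h0, h1, h2])
  · exact h

theorem decomp : ∀ c : K4, c = c.re.val • (1 : K4) + c.im.val • om := by
  decide +kernel

/-- The three points. -/
abbrev M21 : Subgroup M24 := stabilizer M24 (none : GolayPt) ⊓ stabilizer M24 (some 0 : GolayPt) ⊓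
  stabilizer M24 (some 1 : GolayPt)

theorem tab_mem {n : ℕ} (h : validM24 n = true) (h0 : papp n 23 = 23) (h1 : papp n 0 = 0) (h2 : papp n 1 = 1) :
    ∃ σ : M21, ∀ a : GolayPt, idx (σ • a) = papp n (idx a) := by
  obtain ⟨σ, hσ, ht⟩ := exists_mem_M24 h
  refine ⟨⟨⟨σ, hσ⟩, ⟨⟨?_, ?_⟩, ?_⟩⟩, ht⟩
  · exact idx_injective ((ht none).trans h0)
  · exact idx_injective ((ht (some 0)).trans h1)
  · exact idx_injective ((ht (some 1)).trans h2)

/-- The generating set. -/
def gens : Set (SpecialLinearGroup (Fin 3) K4) :=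
  {g | ∃ (i j : Fin 3) (h : i ≠ j) (c : K4), (c = 1 ∨ c = om) ∧ g = SpecialLinearGroup.transvection h c}

theorem transv_mem {H : Subgroup (SpecialLinearGroup (Fin 3) K4)} {i j : Fin 3} (h : i ≠ j)
    (h1 : SpecialLinearGroup.transvection h (1 : K4) ∈ H)
    (h2 : SpecialLinearGroup.transvection h om ∈ H) (c : K4) :
    SpecialLinearGroup.transvection h c ∈ H := by
  let M : AddSubmonoid K4 :=
    { carrier := {c | SpecialLinearGroup.transvection h c ∈ H}
      zero_mem' := by
        change SpecialLinearGroup.transvection h 0 ∈ H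
        rw [SpecialLinearGroup.transvection_coeff_zero]; exact H.one_mem
      add_mem' := by
        intro a b ha hb
        change SpecialLinearGroup.transvection h (a + b) ∈ H
        rw [SpecialLinearGroup.transvection_add]
        exact H.mul_mem ha hb }
  have : c ∈ M := by
    rw [decomp c]
    exact M.add_mem (M.nsmul_mem h1 _) (M.nsmul_mem h2 _)
  exact this

theorem closure_gens : Subgroup.closure gens = ⊤ := by
  rw [eq_top_iff]
  intro g _
  refine ClassBase.transvection_induction (fun g => g ∈ Subgroup.closure gens) ?_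
    (fun A B => mul_mem) g
  intro i j hij c
  apply transv_mem hij
  · exact Subgroup.subset_closure ⟨i, j, hij, 1, Or.inl rfl, rfl⟩
  · exact Subgroup.subset_closure ⟨i, j, hij, om, Or.inr rfl, rfl⟩

theorem ne_zero_iff (v : Fin 3 → K4) : v ≠ 0 ↔ (v 0 ≠ 0 ∨ v 1 ≠ 0 ∨ v 2 ≠ 0) := by
  rw [Ne, funext_iff, Fin.forall_fin_succ, Fin.forall_fin_two]
  simp only [Pi.zero_apply]
  change ¬ (v 0 = 0 ∧ v 1 = 0 ∧ v 2 = 0) ↔ _
  tauto

theorem sl_smul (g : SpecialLinearGroup (Fin 3) K4) (v : Fin 3 → K4) :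
    g • v = (g : Matrix (Fin 3) (Fin 3) K4) *ᵥ v := rfl

theorem smul_t {i j : Fin 3} (h : i ≠ j) (c : K4) (v : Fin 3 → K4) :
    (SpecialLinearGroup.transvection h c) • v = v + Pi.single i (c * v j) := by
  rw [sl_smul, ClassBase.transvection_mulVec_apply]

/-- The relation. -/
def rel (v : Fin 3 → K4) (a : GolayPt) : Bool := decide (lab (v 0) (v 1) (v 2) = idx a)

theorem lab_cases : ∀ x y z : K4, (x ≠ 0 ∨ y ≠ 0 ∨ z ≠ 0) → lab x y z < 24 ∧ lab x y z ≠ 0 ∧ lab x y z ≠ 1 ∧ lab x y z ≠ 23 := by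
  decide +kernel

theorem papp_inj {n : ℕ} {σ : M21} (h : ∀ a : GolayPt, idx (σ • a) = papp n (idx a)) {l : ℕ} (hl : l < 24) (a : GolayPt) :
    decide (papp n l = idx (σ • a)) = decide (l = idx a) := by
  rw [h]
  apply decide_eq_decide.2
  constructor
  · intro h1
    have h2 : papp n (idx (pt l)) = papp n (idx a) := by rw [idx_pt hl]; exact h1
    rw [← h, ← h] at h2
    have h3 := smul_left_cancel σ (idx_injective h2)
    rw [← h3, idx_pt hl]
  · intro h1; rw [h1]

theorem gen_case {i j : Fin 3} (hij : i ≠ j) {c : K4} {n : ℕ} (hv : validM24 n = true)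
    (h0 : papp n 23 = 23) (h1 : papp n 0 = 0) (h2 : papp n 1 = 1)
    (h : ∀ v : Fin 3 → K4, v ≠ 0 → lab ((v + Pi.single i (c * v j) : Fin 3 → K4) 0)
      ((v + Pi.single i (c * v j) : Fin 3 → K4) 1)
      ((v + Pi.single i (c * v j) : Fin 3 → K4) 2) = papp n (lab (v 0) (v 1) (v 2))) :
    ∃ σ : M21, ∀ v : Fin 3 → K4, ((SpecialLinearGroup.transvection hij c) • v ≠ 0 ↔ v ≠ 0) ∧
      (v ≠ 0 → ∀ a, rel ((SpecialLinearGroup.transvection hij c) • v) (σ • a) = rel v a) := by
  obtain ⟨σ, hσ⟩ := tab_mem hv h0 h1 h2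
  refine ⟨σ, fun v => ⟨smul_ne_zero_iff_ne _, fun hv a => ?_⟩⟩
  unfold rel
  rw [smul_t, h v hv]
  exact papp_inj hσ (lab_cases _ _ _ ((ne_zero_iff v).1 hv)).1 a

theorem gens_ok : ∀ s ∈ gens, ∃ σ : M21, ∀ v : Fin 3 → K4, (s • v ≠ 0 ↔ v ≠ 0) ∧
    (v ≠ 0 → ∀ a, rel (s • v) (σ • a) = rel v a) := by
  rintro s ⟨i, j, hij, c, hc, rfl⟩
  have key : ∀ v : Fin 3 → K4, v ≠ 0 → (v 0 ≠ 0 ∨ v 1 ≠ 0 ∨ v 2 ≠ 0) := fun v => (ne_zero_iff v).1
  fin_cases i <;> fin_cases j <;> simp only [Fin.mk_zero, Fin.mk_one, Fin.reduceFinMk, ne_eq, not_true_eq_false] at hij <;> rcases hc with rfl | rfl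
  · exact gen_case hij (n := t011) (by decide +kernel) (by decide) (by decide) (by decide)
      (fun v hv => by simpa [Pi.single_apply] using (chk01 _ _ _ (key v hv)).1)
  · exact gen_case hij (n := t012) (by decide +kernel) (by decide) (by decide) (by decide)
      (fun v hv => by simpa [Pi.single_apply] using (chk01 _ _ _ (key v hv)).2)
  · exact gen_case hij (n := t021) (by decide +kernel) (by decide) (by decide) (by decide)
      (fun v hv => by simpa [Pi.single_apply] using (chk02 _ _ _ (key v hv)).1)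
  · exact gen_case hij (n := t022) (by decide +kernel) (by decide) (by decide) (by decide)
      (fun v hv => by simpa [Pi.single_apply] using (chk02 _ _ _ (key v hv)).2)
  · exact gen_case hij (n := t101) (by decide +kernel) (by decide) (by decide) (by decide)
      (fun v hv => by simpa [Pi.single_apply] using (chk10 _ _ _ (key v hv)).1)
  · exact gen_case hij (n := t102) (by decide +kernel) (by decide) (by decide) (by decide)
      (fun v hv => by simpa [Pi.single_apply] using (chk10 _ _ _ (key v hv)).2)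
  · exact gen_case hij (n := t121) (by decide +kernel) (by decide) (by decide) (by decide)
      (fun v hv => by simpa [Pi.single_apply] using (chk12 _ _ _ (key v hv)).1)
  · exact gen_case hij (n := t122) (by decide +kernel) (by decide) (by decide) (by decide)
      (fun v hv => by simpa [Pi.single_apply] using (chk12 _ _ _ (key v hv)).2)
  · exact gen_case hij (n := t201) (by decide +kernel) (by decide) (by decide) (by decide)
      (fun v hv => by simpa [Pi.single_apply] using (chk20 _ _ _ (key v hv)).1)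
  · exact gen_case hij (n := t202) (by decide +kernel) (by decide) (by decide) (by decide)
      (fun v hv => by simpa [Pi.single_apply] using (chk20 _ _ _ (key v hv)).2)
  · exact gen_case hij (n := t211) (by decide +kernel) (by decide) (by decide) (by decide)
      (fun v hv => by simpa [Pi.single_apply] using (chk21 _ _ _ (key v hv)).1)
  · exact gen_case hij (n := t212) (by decide +kernel) (by decide) (by decide) (by decide)
      (fun v hv => by simpa [Pi.single_apply] using (chk21 _ _ _ (key v hv)).2)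

theorem sep (t : M21) (h : ∀ v : Fin 3 → K4, v ≠ 0 → ∀ a, rel v (t • a) = rel v a) : t = 1 := by
  apply Subtype.ext
  apply Subtype.ext
  ext1 a
  show t • a = a
  by_cases h0 : a = none
  · rw [h0]; exact t.2.1.1
  by_cases h1 : a = some 0
  · rw [h1]; exact t.2.1.2
  by_cases h2 : a = some 1
  · rw [h2]; exact t.2.2
  obtain ⟨x, y, z, hne, hl⟩ := chkLab (idx a) (idx_lt a) (fun e => h0 (idx_injective e)) (fun e => h1 (idx_injective e))
    (fun e => h2 (idx_injective e))
  have h3 := h ![x, y, z] ((ne_zero_iff _).2 hne) a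
  have h4 : rel ![x, y, z] a = true := decide_eq_true hl
  rw [h4] at h3
  have h5 : lab x y z = idx (t • a) := of_decide_eq_true h3
  exact (idx_injective (hl.symm.trans h5)).symm

theorem exists_hom : ∃ φ : SpecialLinearGroup (Fin 3) K4 →* M21,
    ∀ g (x : Fin 3 → K4), x ≠ 0 → ∀ a, rel (g • x) (φ g • a) = rel x a :=
  exists_hom_act (fun x => x ≠ 0) rel gens closure_gens gens_ok sep

theorem card_psl : Nat.card (Matrix.ProjectiveSpecialLinearGroup (Fin 3) K4) = 20160 := by
  have h := S0243.result card_k4 3 (by norm_num)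
  rw [Fin.prod_univ_three] at h
  have e : (4 ^ 3 - 4 ^ ((0 : Fin 3) : ℕ)) * (4 ^ 3 - 4 ^ ((1 : Fin 3) : ℕ)) * (4 ^ 3 - 4 ^ ((2 : Fin 3) : ℕ)) = 181440 := by
    decide
  rw [e] at h
  have e2 : Nat.gcd 3 (4 - 1) = 3 := by decide
  rw [e2] at h
  omega

theorem card_M21 : Nat.card M21 = 20160 := by
  rw [← stabChain_three]
  apply Nat.card_congr
  refine ⟨fun x => ⟨((x : M24) : Equiv.Perm GolayPt), ?_⟩, fun y => ⟨⟨y.1, ?_⟩, ?_⟩, ?_, ?_⟩
  · rw [mem_stabChain]
    refine ⟨(x : M24).2, ?_⟩
    intro j hj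
    interval_cases j
    · exact x.2.1.1
    · exact x.2.1.2
    · exact x.2.2
  · exact (mem_stabChain.1 y.2).1
  · have h := (mem_stabChain.1 y.2).2
    exact ⟨⟨h 0 (by norm_num), h 1 (by norm_num)⟩, h 2 (by norm_num)⟩
  · intro x; rfl
  · intro y; rfl

theorem main_k4 : Nonempty (M21 ≃* Matrix.ProjectiveSpecialLinearGroup (Fin 3) K4) := by
  obtain ⟨φ, hφ⟩ := exists_hom
  have hcen : Subgroup.center (SpecialLinearGroup (Fin 3) K4) ≤ φ.ker := by
    intro z hz
    rw [Matrix.SpecialLinearGroup.mem_center_iff] at hz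
    obtain ⟨r, hr, hz⟩ := hz
    have hr0 : r ≠ 0 := by
      intro h
      rw [h, Fintype.card_fin, zero_pow (by norm_num)] at hr
      exact zero_ne_one hr
    rw [MonoidHom.mem_ker]
    apply sep
    intro v hv a
    rw [← hφ z v hv a]
    have h1 : z • v = fun i => r * v i := by
      rw [sl_smul, ← hz]
      funext i
      simp
    unfold rel
    rw [h1]
    change _ = decide (lab (r * v 0) (r * v 1) (r * v 2) = _)
    rw [chkScal r hr0]
  let ψ : Matrix.ProjectiveSpecialLinearGroup (Fin 3) K4 →* M21 := QuotientGroup.lift _ φ hcen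
  have hsimple : IsSimpleGroup (Matrix.ProjectiveSpecialLinearGroup (Fin 3) K4) :=
    ClassBase.psl_fin_simple 3 (le_refl _)
  have hinj : Function.Injective ψ := by
    rw [← MonoidHom.ker_eq_bot_iff]
    rcases hsimple.eq_bot_or_eq_top_of_normal ψ.ker inferInstance with h | h
    · exact h
    · exfalso
      let g : SpecialLinearGroup (Fin 3) K4 := SpecialLinearGroup.transvection (zero_ne_one (α := Fin 3)) 1
      have h1 : φ g = 1 := by
        have h2 : (QuotientGroup.mk g : Matrix.ProjectiveSpecialLinearGroup (Fin 3) K4) ∈ ψ.ker := by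
          rw [h]; trivial
        exact h2
      have h3 := hφ g ![0, 1, 0] (by rw [ne_zero_iff]; right; left; exact one_ne_zero) (pt (lab 0 1 0))
      rw [h1, one_smul] at h3
      have h4 : g • (![0, 1, 0] : Fin 3 → K4) = ![1, 1, 0] := by
        rw [smul_t]
        funext i
        fin_cases i <;> simp [Pi.single_apply]
      rw [h4] at h3
      revert h3
      decide +kernel
  have hb : Function.Bijective ψ := (Nat.bijective_iff_injective_and_card ψ).2 ⟨hinj, by rw [card_psl, card_M21]⟩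
  exact ⟨(MulEquiv.ofBijective ψ hb).symm⟩

theorem main (p q r : GolayPt) (hpq : p ≠ q) (hpr : p ≠ r) (hqr : q ≠ r) (F : Type) [Field F] [Fintype F]
    (hF : Fintype.card F = 4) :
    Nonempty ((stabilizer M24 p ⊓ stabilizer M24 q ⊓ stabilizer M24 r : Subgroup M24) ≃*
      Matrix.ProjectiveSpecialLinearGroup (Fin 3) F) := by
  obtain ⟨e⟩ := main_k4
  have e2 : K4 ≃+* F := FiniteField.ringEquivOfCardEq (by rw [card_k4, hF])
  have h3 := M24_transitive_k 3 (by norm_num)
  obtain ⟨g, hg⟩ := h3.exists_smul_eq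
    (⟨![p, q, r], by
      intro i j hij
      fin_cases i <;> fin_cases j <;> simp_all⟩ : Fin 3 ↪ GolayPt)
    (⟨![none, some 0, some 1], by decide⟩ : Fin 3 ↪ GolayPt)
  have h0 : g • p = none := congrArg (fun f => f 0) hg
  have h1 : g • q = some 0 := congrArg (fun f => f 1) hg
  have h2 : g • r = some 1 := congrArg (fun f => f 2) hg
  have e3 : (stabilizer M24 p ⊓ stabilizer M24 q ⊓ stabilizer M24 r : Subgroup M24) ≃* M21 :=
    (MulAut.conj g).subgroupMap _ |>.trans (MulEquiv.subgroupCongr (by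
      rw [Subgroup.map_inf _ _ _ (MulAut.conj g).injective, Subgroup.map_inf _ _ _ (MulAut.conj g).injective]
      show _ = stabilizer M24 (none : GolayPt) ⊓ stabilizer M24 (some 0 : GolayPt) ⊓ stabilizer M24 (some 1 : GolayPt)
      rw [← h0, ← h1, ← h2]
      exact congrArg₂ _ (congrArg₂ _ (stabilizer_smul_eq_stabilizer_map_conj g p).symm
        (stabilizer_smul_eq_stabilizer_map_conj g q).symm) (stabilizer_smul_eq_stabilizer_map_conj g r).symm))
  exact ⟨e3.trans (e.trans (ClassBase.pslCongr e2))⟩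

end Cfsg.Agent.Golay.PSL34
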